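import Mathlib
import Cfsg.Prelude.Def_Solvable
import Cfsg.Prelude.Def_Local
import Cfsg.Prelude.Def_CaseTheorems
import Cfsg.Agent.Lib.Helper34.GradedLie
import Cfsg.Agent.Lib.Helper34.ConvLie
import Cfsg.Agent.Lib.Helper34.LcsLie

/-!
# S3782 (Alperin: derived length and automorphisms of order `p` with `p ^ n` fixed points)
## Definitions and package statements (helper70)

Each `def X : Prop` below is a package: a self-contained statement to be proved by a helper in
its own file as `theorem x : X.{u}` (possibly from other packages as hypotheses).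
The paper proof is in the team notes of topic `S3782`.
-/

set_option autoImplicit false

namespace Cfsg.Agent.Lib.Helper70.Alp

universe u

/-- Higman's bound `h(p)` in the Kreknin–Kostrikin form used by `S3779`. -/
def hB (p : ℕ) : ℕ := Finset.sum (Finset.range (2 ^ (p - 1) - 1)) (fun i => (p - 1) ^ i)

/-- The bound for the quotient `H / O_p(H)`. -/
def topB (p n : ℕ) : ℕ := (p ^ (p * n)) ^ (p ^ (p * n))

/-- The bound for the derived length of a `p`-group. -/
def dP (p n : ℕ) : ℕ := (n + hB p) * (p * n) + (hB p + 1)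

/-- The automorphism induced by `α` on an invariant subgroup. -/
noncomputable def resAut {G : Type u} [Group G] (α : MulAut G) (H : Subgroup G)
    (h : H.map (α : G ≃* G).toMonoidHom = H) : MulAut ↥H :=
  ((α : G ≃* G).subgroupMap H).trans (MulEquiv.subgroupCongr h)

theorem resAut_apply {G : Type u} [Group G] (α : MulAut G) (H : Subgroup G)
    (h : H.map (α : G ≃* G).toMonoidHom = H) (x : ↥H) : ((resAut α H h x : ↥H) : G) = α x :=
  rfl

/-- The automorphism induced by `α` on the quotient by an invariant normal subgroup. -/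
noncomputable def quotAut {G : Type u} [Group G] (α : MulAut G) (N : Subgroup G) [N.Normal]
    (h : N.map (α : G ≃* G).toMonoidHom = N) : MulAut (G ⧸ N) :=
  QuotientGroup.congr N N α h

theorem quotAut_mk {G : Type u} [Group G] (α : MulAut G) (N : Subgroup G) [N.Normal]
    (h : N.map (α : G ≃* G).toMonoidHom = N) (g : G) :
    quotAut α N h (QuotientGroup.mk g) = QuotientGroup.mk (α g) :=
  rfl

theorem resAut_pow_apply {G : Type u} [Group G] (α : MulAut G) (H : Subgroup G)
    (h : H.map (α : G ≃* G).toMonoidHom = H) (k : ℕ) (x : ↥H) :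
    (((resAut α H h) ^ k) x : G) = (α ^ k) x := by
  induction k generalizing x with
  | zero => simp
  | succ k ih =>
    rw [pow_succ, pow_succ, MulAut.mul_apply, MulAut.mul_apply, ih, resAut_apply]

theorem resAut_pow_eq_one {G : Type u} [Group G] (α : MulAut G) (H : Subgroup G)
    (h : H.map (α : G ≃* G).toMonoidHom = H) {k : ℕ} (hk : α ^ k = 1) :
    (resAut α H h) ^ k = 1 := by
  ext x
  rw [resAut_pow_apply, hk]
  rfl

theorem quotAut_pow_mk {G : Type u} [Group G] (α : MulAut G) (N : Subgroup G) [N.Normal]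
    (h : N.map (α : G ≃* G).toMonoidHom = N) (k : ℕ) (g : G) :
    ((quotAut α N h) ^ k) (QuotientGroup.mk g) = QuotientGroup.mk ((α ^ k) g) := by
  induction k generalizing g with
  | zero => simp
  | succ k ih =>
    rw [pow_succ, pow_succ, MulAut.mul_apply, MulAut.mul_apply, quotAut_mk, ih]

theorem quotAut_pow_eq_one {G : Type u} [Group G] (α : MulAut G) (N : Subgroup G) [N.Normal]
    (h : N.map (α : G ≃* G).toMonoidHom = N) {k : ℕ} (hk : α ^ k = 1) :
    (quotAut α N h) ^ k = 1 := by
  ext x
  induction x using QuotientGroup.induction_on with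
  | H g =>
    rw [quotAut_pow_mk, hk]
    rfl

/-- A characteristic subgroup is invariant. -/
theorem map_eq_of_char {G : Type u} [Group G] (α : MulAut G) (H : Subgroup G)
    [hH : H.Characteristic] : H.map (α : G ≃* G).toMonoidHom = H :=
  Subgroup.characteristic_iff_map_eq.mp hH α

/-- The fixed points of the restriction inject into the fixed points. -/
theorem card_fix_resAut_le {G : Type u} [Group G] [Finite G] (α : MulAut G) (H : Subgroup G)
    (h : H.map (α : G ≃* G).toMonoidHom = H) :
    Nat.card {x : ↥H // resAut α H h x = x} ≤ Nat.card {g : G // α g = g} := by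
  refine Nat.card_le_card_of_injective
    (fun x => ⟨(x.1 : G), by
      have := congrArg (Subtype.val) x.2
      rwa [resAut_apply] at this⟩) ?_
  intro x y hxy
  apply Subtype.ext
  apply Subtype.ext
  exact congrArg (fun z : {g : G // α g = g} => (z.1 : G)) hxy

/-! ## Fixed points -/

/-- (A) An automorphism has at most as many fixed points on a quotient as on the group. -/
def LemFixQuot : Prop :=
  ∀ {G : Type u} [Group G] [Finite G] (α : MulAut G) (N : Subgroup G) [N.Normal]
    (h : N.map (α : G ≃* G).toMonoidHom = N),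
    Nat.card {x : G ⧸ N // quotAut α N h x = x} ≤ Nat.card {g : G // α g = g}

/-- (B) In a `p`-group with an automorphism with at most `p ^ n` fixed points, the fixed points
on every invariant section `A / B` have order dividing `p ^ n`. -/
def LemSecFix : Prop :=
  ∀ {p : ℕ} [Fact p.Prime] {N : Type u} [Group N] [Finite N] (α : MulAut N) (n : ℕ),
    IsPGroup p N → Nat.card {g : N // α g = g} ≤ p ^ n →
    ∀ (A B : Subgroup N), B ≤ A → (∀ a ∈ A, ∀ b ∈ B, a * b * a⁻¹ ∈ B) →
    (∀ a ∈ A, α a ∈ A) → (∀ b ∈ B, α b ∈ B) →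
    ∀ g ∈ A, g⁻¹ * α g ∈ B → g ^ p ^ n ∈ B

/-- (C0) A finite commutative group of exponent dividing `m` generated by a finite set `S` has
order at most `m ^ S.card`. -/
def LemGenCard : Prop :=
  ∀ {V : Type u} [CommGroup V] [Finite V] (S : Finset V) (m : ℕ), 0 < m →
    Subgroup.closure (S : Set V) = ⊤ → (∀ v : V, v ^ m = 1) → Nat.card V ≤ m ^ S.card

/-- (C) The order of an invariant abelian section `A / B` of exponent dividing `p ^ e`
(via `S3780`: such a section is generated by `p * n` elements). -/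
def LemSecCard : Prop :=
  ∀ {p : ℕ} [Fact p.Prime] {N : Type u} [Group N] [Finite N] (α : MulAut N) (n e : ℕ),
    IsPGroup p N → α ^ p = 1 → Nat.card {g : N // α g = g} ≤ p ^ n →
    ∀ (A B : Subgroup N), B ≤ A → (∀ a ∈ A, ∀ b ∈ B, a * b * a⁻¹ ∈ B) →
    (∀ a ∈ A, ∀ a' ∈ A, a * a' * a⁻¹ * a'⁻¹ ∈ B) →
    (∀ a ∈ A, α a ∈ A) → (∀ b ∈ B, α b ∈ B) →
    (∀ a ∈ A, a ^ p ^ e ∈ B) →
    Nat.card A ≤ p ^ (e * (p * n)) * Nat.card B

/-! ## The Lie ring method -/

/-- (D1) In the convolution Lie ring `L[ZMod p]`, the `(h(p) + 1)`-th term of the lower central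
series of the sum of the eigen-subgroups of `φ` is killed by `p ^ n`, if the fixed points of
`φ` are. -/
def LemLieEig : Prop :=
  ∀ {p : ℕ} [Fact p.Prime] {L : Type u} [LieRing L] (φ : L →+ L) (n : ℕ),
    (∀ x y, φ ⁅x, y⁆ = ⁅φ x, φ y⁆) → (∀ x, φ x = x → p ^ n • x = 0) →
    ∀ f ∈ Cfsg.Agent.Lib.Helper34.lcsA
        (⨆ i : ZMod p, Cfsg.Agent.Lib.Helper34.Conv.eig (n := p) φ i) (hB p), p ^ n • f = 0

/-- (D) Higman's theorem for a Lie ring automorphism of period `p` whose fixed points are
killed by `p ^ n`: the `(h(p) + 1)`-th term of the lower central series is killed by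
`p ^ (n + h(p))`. -/
def LemLieTor : Prop :=
  ∀ {p : ℕ} [Fact p.Prime] {L : Type u} [LieRing L] (φ : L →+ L) (n : ℕ),
    (∀ x y, φ ⁅x, y⁆ = ⁅φ x, φ y⁆) → (∀ x, (⇑φ)^[p] x = x) → (∀ x, φ x = x → p ^ n • x = 0) →
    ∀ x ∈ Cfsg.Agent.Lib.Helper34.lcsA (⊤ : AddSubgroup L) (hB p), p ^ (n + hB p) • x = 0

/-- (E) The group version of (D): if the fixed points of `α` on the lower central factors have
order dividing `p ^ n`, then the lower central factors from the `(h(p) + 1)`-th on have exponent
dividing `p ^ (n + h(p))`. -/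
def LemGrpTor : Prop :=
  ∀ {p : ℕ} [Fact p.Prime] {N : Type u} [Group N] [Finite N] (α : MulAut N) (n : ℕ),
    α ^ p = 1 →
    (∀ c : ℕ, ∀ g ∈ (⊤ : Subgroup N).lowerCentralSeries c,
      g⁻¹ * α g ∈ (⊤ : Subgroup N).lowerCentralSeries (c + 1) →
      g ^ p ^ n ∈ (⊤ : Subgroup N).lowerCentralSeries (c + 1)) →
    ∀ c : ℕ, hB p ≤ c → ∀ g ∈ (⊤ : Subgroup N).lowerCentralSeries c,
      g ^ p ^ (n + hB p) ∈ (⊤ : Subgroup N).lowerCentralSeries (c + 1)

/-- The `(h(p) + 1)`-th lower central factor of a `p`-group with an automorphism `α`,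
`α ^ p = 1`, with at most `p ^ n` fixed points, has order at most
`p ^ ((n + h(p)) * (p * n))`. -/
def ThmClass : Prop :=
  ∀ {p : ℕ} [Fact p.Prime] {N : Type u} [Group N] [Finite N] (α : MulAut N) (n : ℕ),
    IsPGroup p N → α ^ p = 1 → Nat.card {g : N // α g = g} ≤ p ^ n →
    Nat.card ((⊤ : Subgroup N).lowerCentralSeries (hB p)) ≤
      p ^ ((n + hB p) * (p * n)) * Nat.card ((⊤ : Subgroup N).lowerCentralSeries (hB p + 1))

/-- Alperin's theorem for `p`-groups. -/
def ThmP : Prop :=
  ∀ {p : ℕ} [Fact p.Prime] {P : Type u} [Group P] [Finite P] (α : MulAut P) (n : ℕ),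
    IsPGroup p P → α ^ p = 1 → Nat.card {g : P // α g = g} ≤ p ^ n →
    derivedSeries P (dP p n) = ⊥

/-! ## The reduction to `p`-groups -/

/-- (F) `O_{p'}(G)` is nilpotent of class at most `h(p)` (Thompson and Higman: `S3779`). -/
def LemKer : Prop :=
  ∀ {p : ℕ} [Fact p.Prime] {G : Type u} [Group G] [Finite G] (α : MulAut G) (n : ℕ),
    α ^ p = 1 → Nat.card {g : G // α g = g} = p ^ n →
    derivedSeries ↥(Cfsg.pPrimeCore p G) (hB p) = ⊥

/-- (G) If `O_{p'}(H) = 1` then `H / O_p(H)` acts faithfully on the Frattini quotient of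
`O_p(H)`, whose order is at most `p ^ (p * n)`. -/
def LemTop : Prop :=
  ∀ {p : ℕ} [Fact p.Prime] {H : Type u} [Group H] [Finite H] (β : MulAut H) (n : ℕ),
    Group.IsSolvable H → Cfsg.pPrimeCore p H = ⊥ → β ^ p = 1 →
    Nat.card {g : H // β g = g} ≤ p ^ n →
    Nat.card (H ⧸ Cfsg.pCore p H) ≤ topB p n

/-- (H1) Derived length of an extension. -/
def LemDerExt : Prop :=
  ∀ {G : Type u} [Group G] (N : Subgroup G) [N.Normal] (a b : ℕ),
    derivedSeries (G ⧸ N) a = ⊥ → derivedSeries ↥N b = ⊥ → derivedSeries G (a + b) = ⊥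

/-- (H2) The derived length of a finite solvable group is at most its order. -/
def LemDerCard : Prop :=
  ∀ {S : Type u} [Group S] [Finite S], Group.IsSolvable S → derivedSeries S (Nat.card S) = ⊥

end Cfsg.Agent.Lib.Helper70.Alp
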