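import Mathlib
import Cfsg.Agent.Lib.Helper70.Alp.S3782Defs
import Cfsg.Agent.Lib.Helper63.HallHigman
import Cfsg.Agent.Lib.Helper63.PLength

/-!
# S3782 (Alperin): the reduction to `p`-groups (helper70)

`O_{p'}(G)` has class at most `h(p)` (`LemKer`), `H = G / O_{p'}(G)` has `O_{p'}(H) = 1`, so
`|H / O_p(H)|` is bounded (`LemTop`), and `O_p(H)` has bounded derived length (`ThmP`).
-/

set_option autoImplicit false

namespace Cfsg.Agent.Lib.Helper70.Alp

universe u

open Cfsg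

theorem s3782_of (hA : LemFixQuot.{u}) (hP : ThmP.{u}) (hK : LemKer.{u}) (hTop : LemTop.{u})
    (hExt : LemDerExt.{u}) (hCard : LemDerCard.{u}) (p : ℕ) (hp : p.Prime) (n : ℕ)
    (G : Type u) [Group G] [Finite G] (hsol : Group.IsSolvable G) (α : MulAut G)
    (hα : orderOf α = p) (hfix : Nat.card {g : G // α g = g} = p ^ n) :
    derivedSeries G (topB p n + dP p n + hB p) = ⊥ := by
  have : Fact p.Prime := ⟨hp⟩
  have := hsol
  have hαp : α ^ p = 1 := by rw [← hα]; exact pow_orderOf_eq_one α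
  -- the `p'`-core
  have hKc : (pPrimeCore p G).Characteristic :=
    Cfsg.Agent.Lib.Helper63.pPrimeCore_characteristic' p G
  have hKα := map_eq_of_char α (pPrimeCore p G)
  have h1 : derivedSeries ↥(pPrimeCore p G) (hB p) = ⊥ := hK α n hαp hfix
  -- the quotient
  have hH0 : pPrimeCore p (G ⧸ pPrimeCore p G) = ⊥ :=
    Cfsg.Agent.Lib.Helper63.pPrimeCore_quotient_eq_bot p G
  have hβp : (quotAut α (pPrimeCore p G) hKα) ^ p = 1 := quotAut_pow_eq_one α _ hKα hαp
  have hβfix : Nat.card {x : G ⧸ pPrimeCore p G // quotAut α (pPrimeCore p G) hKα x = x}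
      ≤ p ^ n := (hA α _ hKα).trans hfix.le
  have hsolH : Group.IsSolvable (G ⧸ pPrimeCore p G) := inferInstance
  -- `O_p` of the quotient
  have hQc : (pCore p (G ⧸ pPrimeCore p G)).Characteristic :=
    Cfsg.Agent.Lib.Helper63.pCore_characteristic' p _
  have hQβ := map_eq_of_char (quotAut α (pPrimeCore p G) hKα) (pCore p (G ⧸ pPrimeCore p G))
  have hQp : IsPGroup p ↥(pCore p (G ⧸ pPrimeCore p G)) :=
    Cfsg.Agent.Lib.Helper63.pCore_isPGroup' p _
  have h2 : derivedSeries ↥(pCore p (G ⧸ pPrimeCore p G)) (dP p n) = ⊥ :=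
    hP (resAut (quotAut α (pPrimeCore p G) hKα) _ hQβ) n hQp
      (resAut_pow_eq_one _ _ hQβ hβp) ((card_fix_resAut_le _ _ hQβ).trans hβfix)
  have h3 : Nat.card ((G ⧸ pPrimeCore p G) ⧸ pCore p (G ⧸ pPrimeCore p G)) ≤ topB p n :=
    hTop (quotAut α (pPrimeCore p G) hKα) n hsolH hH0 hβp hβfix
  have h4 : derivedSeries ((G ⧸ pPrimeCore p G) ⧸ pCore p (G ⧸ pPrimeCore p G)) (topB p n)
      = ⊥ := by
    have h5 := hCard (S := (G ⧸ pPrimeCore p G) ⧸ pCore p (G ⧸ pPrimeCore p G)) inferInstance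
    have h6 := derivedSeries_antitone
      (G := (G ⧸ pPrimeCore p G) ⧸ pCore p (G ⧸ pPrimeCore p G)) h3
    rw [h5] at h6
    exact le_bot_iff.mp h6
  have h7 := hExt (pCore p (G ⧸ pPrimeCore p G)) (topB p n) (dP p n) h4 h2
  exact hExt (pPrimeCore p G) (topB p n + dP p n) (hB p) h7 h1

end Cfsg.Agent.Lib.Helper70.Alp
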