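import Mathlib
import Cfsg.Agent.Lib.Helper70.Alp.S3782Defs
import Cfsg.Agent.S3781

/-!
# S3782 (Alperin): glue (helper70)

* `thmClass`: the bound for the `(h(p)+1)`-th lower central factor;
* `thmP`: Alperin's theorem for `p`-groups, via Hall's lemma `S3781`.
-/

set_option autoImplicit false

namespace Cfsg.Agent.Lib.Helper70.Alp

universe u

open Cfsg.Agent.Lib.Helper34

theorem hB_pos (p : ℕ) (hp : p.Prime) : 1 ≤ hB p := by
  unfold hB
  have h2 : 2 ≤ 2 ^ (p - 1) := by
    have : 1 ≤ p - 1 := by have := hp.two_le; omega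
    calc 2 = 2 ^ 1 := by norm_num
      _ ≤ 2 ^ (p - 1) := Nat.pow_le_pow_right (by norm_num) this
  have hmem : 0 ∈ Finset.range (2 ^ (p - 1) - 1) := Finset.mem_range.mpr (by omega)
  calc 1 = (p - 1) ^ 0 := by simp
    _ ≤ Finset.sum (Finset.range (2 ^ (p - 1) - 1)) (fun i => (p - 1) ^ i) :=
      Finset.single_le_sum (f := fun i => (p - 1) ^ i) (fun i _ => Nat.zero_le _) hmem

theorem thmClass (hE : LemGrpTor.{u}) (hB' : LemSecFix.{u}) (hC : LemSecCard.{u}) :
    ThmClass.{u} := by
  intro p _ N _ _ α n hN hα hfix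
  have hinv : ∀ c, ∀ g ∈ gam N c, α g ∈ gam N c := fun c g hg => map_mem_gam α hg
  have hconj : ∀ c, ∀ a ∈ gam N c, ∀ b ∈ gam N (c + 1), a * b * a⁻¹ ∈ gam N (c + 1) := by
    intro c a _ b hb
    have hn : (gam N (c + 1)).Normal := inferInstance
    exact hn.conj_mem b hb a
  have h1 : ∀ c : ℕ, ∀ g ∈ (⊤ : Subgroup N).lowerCentralSeries c,
      g⁻¹ * α g ∈ (⊤ : Subgroup N).lowerCentralSeries (c + 1) →
      g ^ p ^ n ∈ (⊤ : Subgroup N).lowerCentralSeries (c + 1) := by
    intro c g hg hgα
    exact hB' α n hN hfix (gam N c) (gam N (c + 1)) (gam_anti (Nat.le_succ c)) (hconj c)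
      (hinv c) (hinv (c + 1)) g hg hgα
  have h2 := hE α n hα h1 (hB p) le_rfl
  refine hC α n (n + hB p) hN hα hfix (gam N (hB p)) (gam N (hB p + 1))
    (gam_anti (Nat.le_succ _)) (hconj _) ?_ (hinv _) (hinv _) h2
  intro a ha a' _
  have := comm_mem_gam_succ ha a'
  rwa [commutatorElement_def] at this

theorem thmP (hT : ThmClass.{u}) : ThmP.{u} := by
  intro p _ P _ _ α n hP hα hfix
  have hp : p.Prime := Fact.out
  have hh1 : 1 ≤ hB p := hB_pos p hp
  let N : Subgroup P := (⊤ : Subgroup P).lowerCentralSeries ((n + hB p) * (p * n))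
  have hNc : N.Characteristic := inferInstance
  have hNn : N.Normal := inferInstance
  have hNα : N.map (α : P ≃* P).toMonoidHom = N := map_eq_of_char α N
  have hβ : (resAut α N hNα) ^ p = 1 := resAut_pow_eq_one α N hNα hα
  have hβfix : Nat.card {x : ↥N // resAut α N hNα x = x} ≤ p ^ n :=
    (card_fix_resAut_le α N hNα).trans hfix
  have hNp : IsPGroup p ↥N := hP.to_subgroup N
  have h1 := hT (resAut α N hNα) n hNp hβ hβfix
  have hc : ∀ c, Nat.card (N.lowerCentralSeries c)
      = Nat.card ((⊤ : Subgroup ↥N).lowerCentralSeries c) := by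
    intro c
    rw [← Subgroup.top_subtype_lowerCentralSeries]
    exact Subgroup.card_map_of_injective N.subtype_injective
  rw [← hc, ← hc] at h1
  have hbot : N.lowerCentralSeries (hB p + 1) = ⊥ := by
    by_contra hne
    have h2 := Cfsg.Agent.S3781.result hP ((n + hB p) * (p * n) + 1) (Nat.succ_le_succ (Nat.zero_le _))
      N (le_of_eq rfl) (hB p + 1) (by omega) hne
    rw [Nat.add_sub_cancel] at h2
    have hle : N.lowerCentralSeries (hB p + 1) ≤ N.lowerCentralSeries (hB p) :=
      N.lowerCentralSeries_antitone (Nat.le_succ _)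
    have h3 : Nat.card (N.lowerCentralSeries (hB p + 1))
        * (N.lowerCentralSeries (hB p + 1)).relIndex (N.lowerCentralSeries (hB p))
        = Nat.card (N.lowerCentralSeries (hB p)) := by
      have := Subgroup.relIndex_mul_relIndex ⊥ (N.lowerCentralSeries (hB p + 1))
        (N.lowerCentralSeries (hB p)) bot_le hle
      rwa [Subgroup.relIndex_bot_left, Subgroup.relIndex_bot_left] at this
    have hpos : 0 < Nat.card (N.lowerCentralSeries (hB p + 1)) := Nat.card_pos
    have h4 : Nat.card (N.lowerCentralSeries (hB p + 1)) * p ^ ((n + hB p) * (p * n) + 1)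
        ≤ Nat.card (N.lowerCentralSeries (hB p + 1)) * p ^ ((n + hB p) * (p * n)) := by
      calc Nat.card (N.lowerCentralSeries (hB p + 1)) * p ^ ((n + hB p) * (p * n) + 1)
          ≤ Nat.card (N.lowerCentralSeries (hB p + 1))
            * (N.lowerCentralSeries (hB p + 1)).relIndex (N.lowerCentralSeries (hB p)) :=
            Nat.mul_le_mul_left _ h2
        _ = Nat.card (N.lowerCentralSeries (hB p)) := h3
        _ ≤ p ^ ((n + hB p) * (p * n)) * Nat.card (N.lowerCentralSeries (hB p + 1)) := h1
        _ = Nat.card (N.lowerCentralSeries (hB p + 1)) * p ^ ((n + hB p) * (p * n)) :=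
            Nat.mul_comm _ _
    have h5 := Nat.le_of_mul_le_mul_left h4 hpos
    have h6 : p ^ ((n + hB p) * (p * n)) < p ^ ((n + hB p) * (p * n) + 1) :=
      Nat.pow_lt_pow_right hp.one_lt (Nat.lt_succ_self _)
    omega
  have hd : ∀ k, derivedSeries P ((n + hB p) * (p * n) + k) ≤ N.lowerCentralSeries k := by
    intro k
    induction k with
    | zero => exact Subgroup.derived_le_lower_central _
    | succ k ih =>
      rw [← add_assoc, derivedSeries_succ, Subgroup.lowerCentralSeries_succ]
      exact Subgroup.commutator_mono ih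
        (ih.trans (N.lowerCentralSeries_antitone (Nat.zero_le k)))
  have h7 := hd (hB p + 1)
  rw [hbot] at h7
  exact le_bot_iff.mp h7

end Cfsg.Agent.Lib.Helper70.Alp
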