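import Mathlib
import Cfsg.Agent.Lib.Helper70.Alp.S3782Defs

/-!
# S3782 (Alperin): package (D) `LemLieTor` from (D1) `LemLieEig` (helper70)

The transfer from the convolution Lie ring `L[ZMod p]` back to `L`, in the presence of fixed
points (compare `Helper34.conv_transfer`).
-/

set_option autoImplicit false
set_option linter.unusedSectionVars false

namespace Cfsg.Agent.Lib.Helper70.Alp

universe u

open Cfsg.Agent.Lib.Helper34 Cfsg.Agent.Lib.Helper34.Conv

section

variable {L : Type u} [LieRing L] {p : ℕ} [Fact p.Prime]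

/-- the constant function -/
def constC (p : ℕ) (x : L) : Conv p L := fun _ => x

theorem constC_apply (x : L) (k : ZMod p) : constC p x k = x := rfl

theorem sum_iterate_fixed (φ : L →+ L) (hper : ∀ x, (⇑φ)^[p] x = x) (l : L) :
    φ (∑ j : ZMod p, (⇑φ)^[j.val] l) = ∑ j : ZMod p, (⇑φ)^[j.val] l := by
  rw [map_sum]
  have h1 : ∑ j : ZMod p, φ ((⇑φ)^[j.val] l) = ∑ j : ZMod p, (⇑φ)^[(j + 1).val] l := by
    refine Finset.sum_congr rfl (fun j _ => ?_)
    rw [iterate_val_succ φ hper]
  rw [h1]
  exact Fintype.sum_equiv (Equiv.addRight 1) _ _ (fun j => rfl)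

theorem sum_eigE_fix (φ : L →+ L) (l : L) :
    ∑ i : ZMod p, eigE φ i l
      = eps p l + constC p (∑ j : ZMod p, (⇑φ)^[j.val] l) := by
  ext k
  rw [Conv.add_apply, Conv.sum_apply, eps_apply, constC_apply]
  show ∑ i : ZMod p, ∑ j : ZMod p, (if k = -i * j then (⇑φ)^[j.val] l else 0) = _
  rw [Finset.sum_comm]
  have h1 : ∀ j : ZMod p, ∑ i : ZMod p, (if k = -i * j then (⇑φ)^[j.val] l else 0)
      = (⇑φ)^[j.val] l + (if j = 0 then ((if k = 0 then p • l else 0) - l) else 0) := by
    intro j
    by_cases hj : j = 0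
    · subst hj
      simp only [mul_zero, ZMod.val_zero, Function.iterate_zero, id_eq, if_true]
      by_cases hk : k = 0
      · simp [hk, Finset.sum_const, Finset.card_univ, ZMod.card]
      · simp [hk]
    · rw [if_neg hj, add_zero]
      have hiff : ∀ i : ZMod p, (k = -i * j) ↔ (i = -k * j⁻¹) := by
        intro i
        constructor
        · intro h; rw [h]; field_simp
        · intro h; rw [h]; field_simp
      simp only [hiff]
      rw [Finset.sum_ite_eq' Finset.univ (-k * j⁻¹) (fun _ => (⇑φ)^[j.val] l)]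
      simp
  rw [Finset.sum_congr rfl (fun j _ => h1 j), Finset.sum_add_distrib,
    Finset.sum_ite_eq' Finset.univ (0 : ZMod p)]
  simp only [Finset.mem_univ, if_true]
  exact add_comm _ _

theorem eps_mem_iSup (φ : L →+ L) (hper : ∀ x, (⇑φ)^[p] x = x) (l : L) :
    eps p l ∈ ⨆ i : ZMod p, eig (n := p) φ i := by
  have h := sum_eigE_fix (p := p) φ l
  have h2 : eps p l
      = ∑ i : ZMod p, eigE φ i l - constC p (∑ j : ZMod p, (⇑φ)^[j.val] l) := by
    rw [h]; abel
  rw [h2]
  refine AddSubgroup.sub_mem _ (AddSubgroup.sum_mem _ (fun i _ => ?_)) ?_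
  · exact (le_iSup (fun i : ZMod p => eig (n := p) φ i) i) (eigE_mem φ hper i l)
  · refine (le_iSup (fun i : ZMod p => eig (n := p) φ i) 0) ?_
    intro k
    rw [sub_zero, constC_apply]
    exact sum_iterate_fixed φ hper l

end

theorem lemLieTor (hD1 : LemLieEig.{u}) : LemLieTor.{u} := by
  intro p _ L _ φ n hφ hper hfix x hx
  let B : AddSubgroup L := (nsmulAddMonoidHom (p ^ (n + hB p)) : L →+ L).ker
  have key : brkN (⊤ : AddSubgroup L) ⊤ (hB p) ≤ B := by
    refine brkN_le_of_blist (hB p) ⊤ ?_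
    intro u _ l hl _
    have h1 : blist (eps p u) (l.map (eps p))
        ∈ lcsA (⨆ i : ZMod p, eig (n := p) φ i) (hB p) := by
      have h2 := blist_mem_brkN (S := ⨆ i : ZMod p, eig (n := p) φ i) (l.map (eps p))
        (⨆ i : ZMod p, eig (n := p) φ i) (eps p u) (eps_mem_iSup φ hper u) (by
          intro x hx
          obtain ⟨y, _, rfl⟩ := List.mem_map.mp hx
          exact eps_mem_iSup φ hper y)
      rwa [List.length_map, hl] at h2
    have h3 := hD1 φ n hφ hfix _ h1
    rw [blist_eps] at h3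
    have h4 : (p ^ n • (p ^ l.length • eps p (blist u l))) (1 : ZMod p) = 0 := by
      rw [h3]; rfl
    rw [Conv.nsmul_apply, Conv.nsmul_apply, eps_apply, if_neg one_ne_zero, zero_sub, smul_neg,
      smul_neg, neg_eq_zero, hl, ← mul_smul, ← pow_add] at h4
    exact h4
  exact key hx

end Cfsg.Agent.Lib.Helper70.Alp
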